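import Cfsg.Agent.OD.Pre
import Cfsg.Agent.H6.TCTop
import Cfsg.Agent.H6.O8T1.C
set_option autoImplicit false
set_option maxRecDepth 100000
set_option Elab.async false
set_option linter.all false
namespace CfH6.O8T1
open CfH6
theorem p0 : C.OkL 256 2304 := C.okL_of 256 16 0 2304 (by decide) (by decide +kernel)
theorem p1 : C.OkL 2304 4352 := C.okL_of 2304 16 0 4352 (by decide) (by decide +kernel)
theorem p2 : C.OkL 4352 6400 := C.okL_of 4352 16 0 6400 (by decide) (by decide +kernel)
theorem p3 : C.OkL 6400 8320 := C.okL_of 6400 15 0 8320 (by decide) (by decide +kernel)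
theorem p4 : C.OkL 8320 10240 := C.okL_of 8320 15 0 10240 (by decide) (by decide +kernel)
theorem p5 : C.OkL 10240 12160 := C.okL_of 10240 15 0 12160 (by decide) (by decide +kernel)
theorem p6 : C.OkL 12160 14208 := C.okL_of 12160 16 0 14208 (by decide) (by decide +kernel)
theorem p7 : C.OkL 14208 16256 := C.okL_of 14208 16 0 16256 (by decide) (by decide +kernel)
theorem p8 : C.OkL 16256 18432 := C.okL_of 16256 17 0 18432 (by decide) (by decide +kernel)
theorem p9 : C.OkL 18432 20608 := C.okL_of 18432 17 0 20608 (by decide) (by decide +kernel)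
theorem p10 : C.OkL 20608 22784 := C.okL_of 20608 17 0 22784 (by decide) (by decide +kernel)
theorem p11 : C.OkL 22784 24960 := C.okL_of 22784 17 0 24960 (by decide) (by decide +kernel)
theorem p12 : C.OkL 24960 27136 := C.okL_of 24960 17 0 27136 (by decide) (by decide +kernel)
theorem p13 : C.OkL 27136 28687 := C.okL_of 27136 12 15 28687 (by decide) (by decide +kernel)
theorem p14 : C.OkR 28687 31247 := C.okR_of 28687 20 0 31247 (by decide) (by decide +kernel)
theorem p15 : C.OkR 31247 33807 := C.okR_of 31247 20 0 33807 (by decide) (by decide +kernel)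
theorem p16 : C.OkR 33807 36239 := C.okR_of 33807 19 0 36239 (by decide) (by decide +kernel)
theorem p17 : C.OkR 36239 38799 := C.okR_of 36239 20 0 38799 (by decide) (by decide +kernel)
theorem p18 : C.OkR 38799 38955 := C.okR_of 38799 1 28 38955 (by decide) (by decide +kernel)
end CfH6.O8T1
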